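import Mathlib
import Cfsg.Agent.Lib.Helper51.TI3.Defs

/-!
Package GH1a of the S3117 project: existence of the quadratic data of a critical group
(`W = X / Z(X)`, `T = Z(X) / Z(X)²`, `sq (xZ) = x² Z²`).
-/

set_option autoImplicit false

universe u

namespace Cfsg.Agent.Lib.Helper38.TI3

open Cfsg.Agent.Lib.Helper51.TI3

section
variable (X : Type u) [Group X]

theorem cmul_comm (a b : ↥(Subgroup.center X)) : a * b = b * a :=
  Subtype.ext (Subgroup.mem_center_iff.mp b.2 a.1)

/-- Squaring on the centre. -/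
def sqHom : ↥(Subgroup.center X) →* ↥(Subgroup.center X) where
  toFun z := z ^ 2
  map_one' := one_pow 2
  map_mul' a b := by
    rw [pow_two, pow_two, pow_two]
    calc a * b * (a * b) = a * (b * a) * b := by group
      _ = a * (a * b) * b := by rw [cmul_comm X b a]
      _ = a * a * (b * b) := by group

theorem sqHom_apply (z : ↥(Subgroup.center X)) : sqHom X z = z ^ 2 := rfl

/-- The subgroup of squares of the centre. -/
def sqRange : Subgroup ↥(Subgroup.center X) := (sqHom X).range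

instance sqRange_normal : (sqRange X).Normal :=
  ⟨fun n hn g => by
    have h : g * n * g⁻¹ = n := by rw [cmul_comm X g n, mul_inv_cancel_right]
    rw [h]; exact hn⟩

theorem mem_sqRange (z : ↥(Subgroup.center X)) :
    z ∈ sqRange X ↔ ∃ y : ↥(Subgroup.center X), z = y ^ 2 := by
  unfold sqRange
  rw [MonoidHom.mem_range]
  constructor
  · rintro ⟨y, hy⟩
    exact ⟨y, by rw [← hy, sqHom_apply]⟩
  · rintro ⟨y, hy⟩
    exact ⟨y, by rw [hy, sqHom_apply]⟩

/-- The projection of the centre onto its quotient by the squares. -/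
def tauq : ↥(Subgroup.center X) →* ↥(Subgroup.center X) ⧸ sqRange X :=
  QuotientGroup.mk' (sqRange X)

theorem tauq_eq_one_iff (z : ↥(Subgroup.center X)) :
    tauq X z = 1 ↔ ∃ y : ↥(Subgroup.center X), z = y ^ 2 := by
  rw [← mem_sqRange]
  exact QuotientGroup.eq_one_iff z

theorem tauq_surj : Function.Surjective (tauq X) := QuotientGroup.mk'_surjective _

theorem tauq_sq (z : ↥(Subgroup.center X)) : tauq X (z ^ 2) = 1 :=
  (tauq_eq_one_iff X _).mpr ⟨z, rfl⟩

theorem t_mul_self (t : ↥(Subgroup.center X) ⧸ sqRange X) : t * t = 1 := by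
  obtain ⟨z, rfl⟩ := tauq_surj X t
  rw [← map_mul, ← pow_two]
  exact tauq_sq X z

theorem t_comm (a b : ↥(Subgroup.center X) ⧸ sqRange X) : a * b = b * a := by
  obtain ⟨z, rfl⟩ := tauq_surj X a
  obtain ⟨z', rfl⟩ := tauq_surj X b
  rw [← map_mul, ← map_mul, cmul_comm X z z']

theorem t_cancel (A B C : ↥(Subgroup.center X) ⧸ sqRange X) : A * C * B * A * B = C := by
  have h1 : A * C * B * A * B = C * ((A * B) * (A * B)) := by
    rw [t_comm X A C]
    simp only [mul_assoc]
  rw [h1, t_mul_self, mul_one]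

/-- The projection onto the central quotient. -/
def piq : X →* X ⧸ Subgroup.center X := QuotientGroup.mk' (Subgroup.center X)

theorem piq_surj : Function.Surjective (piq X) := QuotientGroup.mk'_surjective _

theorem piq_eq_one_iff (x : X) : piq X x = 1 ↔ x ∈ Subgroup.center X :=
  QuotientGroup.eq_one_iff x

theorem piq_eq_iff (x y : X) : piq X x = piq X y ↔ x⁻¹ * y ∈ Subgroup.center X :=
  QuotientGroup.eq

/-- A section of the projection. -/
noncomputable def secq (w : X ⧸ Subgroup.center X) : X := Classical.choose (piq_surj X w)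

theorem piq_secq (w : X ⧸ Subgroup.center X) : piq X (secq X w) = w :=
  Classical.choose_spec (piq_surj X w)

end

section
variable {X : Type u} [Group X]

/-- The squaring map `X / Z → Z / Z²`. -/
noncomputable def sqq (hsq : ∀ x : X, x ^ 2 ∈ Subgroup.center X) (w : X ⧸ Subgroup.center X) :
    ↥(Subgroup.center X) ⧸ sqRange X :=
  tauq X ⟨(secq X w) ^ 2, hsq _⟩

theorem sq_of_eq (hsq : ∀ x : X, x ^ 2 ∈ Subgroup.center X) (x y : X)
    (h : piq X x = piq X y) : tauq X ⟨x ^ 2, hsq x⟩ = tauq X ⟨y ^ 2, hsq y⟩ := by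
  rw [piq_eq_iff] at h
  obtain ⟨c, hc, rfl⟩ : ∃ c, c ∈ Subgroup.center X ∧ y = x * c := ⟨x⁻¹ * y, h, by group⟩
  have hz : (⟨(x * c) ^ 2, hsq (x * c)⟩ : ↥(Subgroup.center X)) =
      ⟨x ^ 2, hsq x⟩ * (⟨c, hc⟩ : ↥(Subgroup.center X)) ^ 2 := by
    apply Subtype.ext
    have hcc := Subgroup.mem_center_iff.mp hc x
    change (x * c) ^ 2 = x ^ 2 * c ^ 2
    rw [pow_two, pow_two, pow_two]
    calc x * c * (x * c) = x * (c * x) * c := by group
      _ = x * (x * c) * c := by rw [hcc]
      _ = x * x * (c * c) := by group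
  rw [hz, map_mul, tauq_sq, mul_one]

theorem sqq_pi (hsq : ∀ x : X, x ^ 2 ∈ Subgroup.center X) (x : X) :
    sqq hsq (piq X x) = tauq X ⟨x ^ 2, hsq x⟩ :=
  sq_of_eq hsq _ _ (piq_secq X (piq X x))

theorem comm_mem (hcomm : ∀ x y : X, x * y * x⁻¹ * y⁻¹ ∈ Subgroup.center X) (x y : X) :
    x⁻¹ * y * x * y⁻¹ ∈ Subgroup.center X := by
  have h := hcomm x⁻¹ y
  rwa [inv_inv] at h

theorem beta_pi (hsq : ∀ x : X, x ^ 2 ∈ Subgroup.center X)
    (hcomm : ∀ x y : X, x * y * x⁻¹ * y⁻¹ ∈ Subgroup.center X) (x y : X) :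
    sqq hsq (piq X x * piq X y) * sqq hsq (piq X x) * sqq hsq (piq X y) =
      tauq X ⟨x⁻¹ * y * x * y⁻¹, comm_mem hcomm x y⟩ := by
  rw [← map_mul (piq X), sqq_pi, sqq_pi, sqq_pi]
  have hz : (⟨(x * y) ^ 2, hsq (x * y)⟩ : ↥(Subgroup.center X)) =
      ⟨x ^ 2, hsq x⟩ * ⟨x⁻¹ * y * x * y⁻¹, comm_mem hcomm x y⟩ * ⟨y ^ 2, hsq y⟩ := by
    apply Subtype.ext
    change (x * y) ^ 2 = x ^ 2 * (x⁻¹ * y * x * y⁻¹) * y ^ 2
    rw [pow_two, pow_two, pow_two]
    group
  rw [hz, map_mul, map_mul]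
  exact t_cancel X _ _ _

theorem comm_mul (hcomm : ∀ x y : X, x * y * x⁻¹ * y⁻¹ ∈ Subgroup.center X) (x x' y : X) :
    (⟨(x * x')⁻¹ * y * (x * x') * y⁻¹, comm_mem hcomm (x * x') y⟩ : ↥(Subgroup.center X)) =
      ⟨x⁻¹ * y * x * y⁻¹, comm_mem hcomm x y⟩ * ⟨x'⁻¹ * y * x' * y⁻¹, comm_mem hcomm x' y⟩ := by
  apply Subtype.ext
  have hc := Subgroup.mem_center_iff.mp (comm_mem hcomm x y) x'⁻¹
  change (x * x')⁻¹ * y * (x * x') * y⁻¹ = x⁻¹ * y * x * y⁻¹ * (x'⁻¹ * y * x' * y⁻¹)
  calc (x * x')⁻¹ * y * (x * x') * y⁻¹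
      = x'⁻¹ * (x⁻¹ * y * x * y⁻¹) * (y * x' * y⁻¹) := by group
    _ = (x⁻¹ * y * x * y⁻¹) * x'⁻¹ * (y * x' * y⁻¹) := by rw [hc]
    _ = x⁻¹ * y * x * y⁻¹ * (x'⁻¹ * y * x' * y⁻¹) := by group

end

theorem lemCritExists : LemCritExists.{u} := by
  intro X _ _ hsq hcomm
  refine ⟨X ⧸ Subgroup.center X, ↥(Subgroup.center X) ⧸ sqRange X, inferInstance, inferInstance,
    inferInstance, inferInstance, ⟨?_⟩⟩
  exact
    { Q :=
        { sq := sqq hsq
          β := fun w w' => sqq hsq (w * w') * sqq hsq w * sqq hsq w'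
          hW := by
            intro w
            obtain ⟨x, rfl⟩ := piq_surj X w
            rw [← map_mul, ← pow_two, piq_eq_one_iff]
            exact hsq x
          hT := t_mul_self X
          sq_mul := by
            intro w w'
            have h := t_cancel X (sqq hsq w * sqq hsq w') (1 : ↥(Subgroup.center X) ⧸ sqRange X)
              (sqq hsq (w * w'))
            simp only [mul_one] at h
            -- h : A * C * A = C with A = sq w * sq w'
            rw [← mul_assoc, ← mul_assoc]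
            rw [mul_assoc (sqq hsq w * sqq hsq w' * sqq hsq (w * w')) (sqq hsq w) (sqq hsq w')]
            exact h.symm
          β_mul := by
            intro w w' u
            obtain ⟨x, rfl⟩ := piq_surj X w
            obtain ⟨x', rfl⟩ := piq_surj X w'
            obtain ⟨y, rfl⟩ := piq_surj X u
            change sqq hsq (piq X x * piq X x' * piq X y) * sqq hsq (piq X x * piq X x') *
                sqq hsq (piq X y) =
              sqq hsq (piq X x * piq X y) * sqq hsq (piq X x) * sqq hsq (piq X y) *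
                (sqq hsq (piq X x' * piq X y) * sqq hsq (piq X x') * sqq hsq (piq X y))
            rw [beta_pi hsq hcomm x y, beta_pi hsq hcomm x' y, ← map_mul (piq X) x x',
              beta_pi hsq hcomm (x * x') y, comm_mul hcomm, map_mul] }
      π := piq X
      τ := tauq X
      π_surj := piq_surj X
      π_ker := piq_eq_one_iff X
      τ_surj := tauq_surj X
      τ_ker := tauq_eq_one_iff X
      sq_π := fun x hx => sqq_pi hsq x }

end Cfsg.Agent.Lib.Helper38.TI3
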